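import Mathlib
import Cfsg.Agent.H17.GS.Base
import Cfsg.Agent.H17.GS.Core
import Cfsg.Agent.H415.CopReeRow
import Cfsg.Agent.H71.ReeOut

/-!
# `GS` for the small Ree groups
-/

set_option autoImplicit false
set_option linter.unusedSectionVars false

namespace Cfsg.Agent.H538.GSRee

open Subgroup
open scoped commutatorElement
open Cfsg.Lie Cfsg.Agent.ChevStructure.FieldMap Cfsg.Agent.ChevalleyStructure.Ree.Gens
  Cfsg.Agent.ChevalleyStructure.Ree.Checks Cfsg.Agent.ChevalleyStructure.Ree.Normal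
  Cfsg.Agent.ChevalleyStructure.Ree Cfsg.Agent.H71 Cfsg.Agent.LieRecognition
  Cfsg.Agent.H967.CopMat Cfsg.Agent.H967.CopSz Cfsg.Agent.H967.CopFix Cfsg.Agent.H15.CopGen
  Cfsg.Agent.H415.CopReeGen Cfsg.Agent.H415.CopReeRow
open Cfsg.Agent.LieRecognition.ReeAbs Cfsg.Agent.LieRecognition.ReeSylowThree
  Cfsg.Agent.LieRecognition.ReeSplit Cfsg.Agent.H71.ReeOut
open Cfsg.Agent.H17.GS

universe u

/-! ### The abstract part -/

section abs

variable {K : Type*} [Field K] [Fintype K] {G : Type u} [Group G]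
variable {m : ℕ} {U : K → K → K → G} {h : Kˣ → G} {n : G}

theorem mul_mem_uSub (D : Data m U h n) {g g' : G} (hg : g ∈ bSub D) (hg' : g' ∈ bSub D) :
    g * g' * g⁻¹ * g'⁻¹ ∈ uSub D := by
  obtain ⟨t, u, v, a, rfl⟩ := hg
  obtain ⟨t', u', v', a', rfl⟩ := hg'
  have hx : U t u v ∈ uSub D := ⟨_, _, _, rfl⟩
  have hy : U t' u' v' ∈ uSub D := ⟨_, _, _, rfl⟩
  have h1 : h a * U t' u' v' * (h a)⁻¹ ∈ uSub D := h_conj_mem D a hy
  have h2 : h a' * (U t u v)⁻¹ * (h a')⁻¹ ∈ uSub D := h_conj_mem D a' (inv_mem hx)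
  have h3 : U t u v * h a * (U t' u' v' * h a') * (U t u v * h a)⁻¹ * (U t' u' v' * h a')⁻¹ =
      U t u v * (h a * U t' u' v' * (h a)⁻¹) * (h a' * (U t u v)⁻¹ * (h a')⁻¹) * (U t' u' v')⁻¹ := by
    have h4 : h a * h a' * (h a)⁻¹ = h a' := by rw [D.h_comm, mul_inv_cancel_right]
    calc U t u v * h a * (U t' u' v' * h a') * (U t u v * h a)⁻¹ * (U t' u' v' * h a')⁻¹
        = U t u v * (h a * U t' u' v' * (h a)⁻¹) * (h a * h a' * (h a)⁻¹) * (U t u v)⁻¹ * (h a')⁻¹ * (U t' u' v')⁻¹ := by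
          group
      _ = _ := by rw [h4]; group
  rw [h3]
  exact mul_mem (mul_mem (mul_mem hx h1) h2) (inv_mem hy)

theorem uSub_pgroup (D : Data m U h n) (hK : Fintype.card K = 3 ^ (2 * m + 1)) : IsPGroup 3 (uSub D) := fun x =>
  ⟨2, Subtype.ext (pow_nine D hK x.2)⟩

theorem bSub_solvable [Finite G] (D : Data m U h n) (hK : Fintype.card K = 3 ^ (2 * m + 1)) :
    Group.IsSolvable (bSub D) := by
  have : Fact (Nat.Prime 3) := ⟨Nat.prime_three⟩
  have hU := uSub_pgroup D hK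
  have hUs : Group.IsSolvable (uSub D) := by
    have := hU.isNilpotent
    infer_instance
  set N := (uSub D).subgroupOf (bSub D) with hN
  have hNn : N.Normal := by
    refine ⟨fun x hx g => ?_⟩
    exact conj_mem_uSub D g.2 hx
  rw [Group.isSolvable_iff_subgroup_quotient N]
  constructor
  · exact Group.isSolvable_of_isSolvable_injective
      (f := (subgroupOfEquivOfLe (uSub_le_bSub D)).toMonoidHom) (MulEquiv.injective _)
  · refine Group.isSolvable_of_comm ?_
    intro a b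
    obtain ⟨a, rfl⟩ := QuotientGroup.mk_surjective a
    obtain ⟨b, rfl⟩ := QuotientGroup.mk_surjective b
    rw [← QuotientGroup.mk_mul, ← QuotientGroup.mk_mul, QuotientGroup.eq_iff_div_mem]
    have h1 := mul_mem_uSub D a.2 b.2
    have h2 : ((a * b / (b * a) : bSub D) : G) = a * b * (a : G)⁻¹ * (b : G)⁻¹ := by
      rw [div_eq_mul_inv, mul_inv_rev]
      push_cast
      group
    show ((a * b / (b * a) : bSub D) : G) ∈ uSub D
    rw [h2]
    exact h1

theorem z_ne (D : Data m U h n) : U 0 0 1 ≠ 1 := by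
  intro h1
  rw [← D.U_zero] at h1
  exact one_ne_zero (U_injective D h1).2.2

theorem x_ne (D : Data m U h n) : U 0 1 0 ≠ 1 := by
  intro h1
  rw [← D.U_zero] at h1
  exact one_ne_zero (U_injective D h1).2.1

theorem cen_z (D : Data m U h n) (hK : Fintype.card K = 3 ^ (2 * m + 1)) {y : G} (hc : y * U 0 0 1 = U 0 0 1 * y) :
    y ∈ uSub D := by
  rcases mem_or_of_commute D hK ⟨0, 0, 1, rfl⟩ (z_ne D) hc with h1 | ⟨v, ⟨t, u, w, rfl⟩, rfl⟩
  · exact h1
  · exfalso
    rw [mul_assoc, D.inv_mul_U, ← mul_assoc, ← mul_assoc, D.U_mul, D.U_mul, neg_zero, z3] at hc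
    obtain ⟨-, -, h3, -⟩ := D.inj₁ _ _ _ _ _ _ _ _ hc
    have h4 : (-1 : K) = 1 := by linear_combination h3
    exact neg_one_ne_one hK h4

/-- the group of the `U 0 u v` -/
def F2 (D : Data m U h n) : Subgroup G where
  carrier := {g | ∃ u v : K, g = U 0 u v}
  mul_mem' := by
    rintro _ _ ⟨a, b, rfl⟩ ⟨c, d, rfl⟩
    exact ⟨a + c, b + d, by rw [D.U_mul, z3]; congr 1 <;> ring⟩
  one_mem' := ⟨0, 0, D.U_zero.symm⟩
  inv_mem' := by
    rintro _ ⟨a, b, rfl⟩
    refine ⟨-a, -b, ?_⟩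
    rw [inv_eq_iff_mul_eq_one, D.U_mul, z3, ← D.U_zero]
    congr 1 <;> ring

theorem F2_mul (D : Data m U h n) (u v u' v' : K) : U 0 u v * U 0 u' v' = U 0 (u + u') (v + v') := by
  rw [D.U_mul, z3]
  congr 1 <;> ring

theorem F2_le (D : Data m U h n) : F2 D ≤ uSub D := by
  rintro _ ⟨u, v, rfl⟩
  exact ⟨_, _, _, rfl⟩

/-- `C ∋ U 0 1 0, U 0 0 1` not solvable normalises no elementary abelian subgroups -/
theorem eq_bot_of_norm [Finite G] (D : Data m U h n) (hK : Fintype.card K = 3 ^ (2 * m + 1)) {C : Subgroup G}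
    (hx : U 0 1 0 ∈ C) (hz : U 0 0 1 ∈ C) (hC : ¬ Group.IsSolvable C) {s : ℕ} (hs : s.Prime) {W : Subgroup G}
    (hW : IsPGroup s W) (hn : C ≤ normalizer (W : Set G)) : W = ⊥ := by
  have h3f : Fact (Nat.Prime 3) := ⟨Nat.prime_three⟩
  have hsf : Fact s.Prime := ⟨hs⟩
  have hU := uSub_pgroup D hK
  by_cases hs3 : s = 3
  · subst hs3
    by_contra hW1
    apply hC
    obtain ⟨P, hP⟩ := hW.exists_le_sylow
    obtain ⟨g, hg⟩ := exists_conj_of_sylow hK D P
    have hWg : ∀ w ∈ W, g⁻¹ * w * g ∈ uSub D := by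
      intro w hw
      have h1 : w ∈ (P : Subgroup G) := hP hw
      rw [hg] at h1
      obtain ⟨y, hy, rfl⟩ := h1
      have h2 : g⁻¹ * (MulAut.conj g).toMonoidHom y * g = y := by
        show g⁻¹ * (g * y * g⁻¹) * g = y
        group
      rw [h2]
      exact hy
    obtain ⟨w, hw, hw1⟩ := W.bot_or_exists_ne_one.resolve_left hW1
    have hCB : C ≤ (bSub D).map (MulAut.conj g).toMonoidHom := by
      intro c hc
      have h1 : c⁻¹ * w * c ∈ W := by
        have h2 := (mem_normalizer_iff.mp (hn (inv_mem hc)) w).mp hw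
        rwa [inv_inv] at h2
      have h2 : g⁻¹ * c * g ∈ bSub D := by
        refine mem_bSub_of_inv_conj_mem D (x := g⁻¹ * w * g) (hWg w hw) ?_ ?_
        · intro h3
          apply hw1
          calc w = g * (g⁻¹ * w * g) * g⁻¹ := by group
            _ = 1 := by rw [h3]; group
        · have h3 : (g⁻¹ * c * g)⁻¹ * (g⁻¹ * w * g) * (g⁻¹ * c * g) = g⁻¹ * (c⁻¹ * w * c) * g := by group
          rw [h3]
          exact hWg _ h1
      refine ⟨g⁻¹ * c * g, h2, ?_⟩
      show g * (g⁻¹ * c * g) * g⁻¹ = c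
      group
    have hBs := bSub_solvable D hK
    have h1 : Group.IsSolvable ((bSub D).map (MulAut.conj g).toMonoidHom) :=
      Group.isSolvable_of_surjective (f := (MulAut.conj g).toMonoidHom.subgroupMap (bSub D))
        ((MulAut.conj g).toMonoidHom.subgroupMap_surjective _)
    exact Group.isSolvable_of_isSolvable_injective (f := Subgroup.inclusion hCB) (inclusion_injective hCB)
  · set E : Subgroup G := F2 D ⊓ C with hE
    have hEC : E ≤ C := inf_le_right
    have hEU : E ≤ uSub D := inf_le_left.trans (F2_le D)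
    have hxE : U 0 1 0 ∈ E := ⟨⟨_, _, rfl⟩, hx⟩
    have hzE : U 0 0 1 ∈ E := ⟨⟨_, _, rfl⟩, hz⟩
    have hEc : ∀ x ∈ E, ∀ y ∈ E, x * y = y * x := by
      rintro _ ⟨⟨u, v, rfl⟩, -⟩ _ ⟨⟨u', v', rfl⟩, -⟩
      rw [F2_mul D, F2_mul D, add_comm u, add_comm v]
    have hnc : ¬ IsCyclic E := by
      rintro ⟨⟨g, hg, hgC⟩, hgen⟩
      have hg3 : g ^ 3 = 1 := by
        obtain ⟨u, v, rfl⟩ := hg
        exact cube_U0 hK D u v
      have hgz : ∀ y ∈ E, y ∈ zpowers g := by
        intro y hy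
        obtain ⟨k, hk⟩ := hgen ⟨y, hy⟩
        exact ⟨k, congrArg Subtype.val hk⟩
      have hgx : g ∈ zpowers (U 0 1 0) := by
        have h1 : orderOf (U 0 1 0) = 3 := orderOf_eq_prime (cube_U0 hK D 1 0) (x_ne D)
        have h2 : zpowers (U 0 1 0) = zpowers g := by
          refine Subgroup.eq_of_le_of_card_ge (by rw [zpowers_le]; exact hgz _ hxE) ?_
          rw [Nat.card_zpowers, Nat.card_zpowers, h1]
          exact Nat.le_of_dvd (by norm_num) (orderOf_dvd_of_pow_eq_one hg3)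
        rw [h2]
        exact mem_zpowers g
      have h1 : zpowers (U 0 1 0) ≤ V D := by
        rw [zpowers_le]
        exact ⟨1, rfl⟩
      have h2 : zpowers g ≤ zpowers (U 0 1 0) := by rwa [zpowers_le]
      obtain ⟨u, hu⟩ := h1 (h2 (hgz _ hzE))
      exact one_ne_zero (U_injective D hu).2.2
    have hzn : U 0 0 1 ∈ normalizer (W : Set G) := hn hz
    have key := le_of_gen (K := G) Nat.prime_three hs (Ne.symm hs3) (E := E) (W := W) (hU.to_le hEU) hEc hnc hW (hEC.trans hn) hzn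
      (by
        intro e he he1 w hw hwe
        have hwB : w ∈ bSub D := by
          refine mem_bSub_of_inv_conj_mem D (x := e) (hEU he) he1 ?_
          have h1 : w⁻¹ * e * w = e := by rw [mul_assoc, ← hwe]; group
          rw [h1]
          exact hEU he
        have h1 : w * (U 0 0 1)⁻¹ * w⁻¹ ∈ uSub D := conj_mem_uSub D hwB (inv_mem ⟨_, _, _, rfl⟩)
        have h2 : U 0 0 1 * w * (U 0 0 1)⁻¹ * w⁻¹ ∈ uSub D := by
          have h3 : U 0 0 1 * w * (U 0 0 1)⁻¹ * w⁻¹ = U 0 0 1 * (w * (U 0 0 1)⁻¹ * w⁻¹) := by group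
          rw [h3]
          exact mul_mem ⟨_, _, _, rfl⟩ h1
        exact ⟨2, pow_nine D hK h2⟩)
    rw [eq_bot_iff]
    intro w hw
    have h1 := cen_z D hK (key w hw)
    have h2 := pow_nine D hK h1
    obtain ⟨k, hk⟩ := hW ⟨w, hw⟩
    have h3 : w ^ s ^ k = 1 := congrArg Subtype.val hk
    have h4 : Nat.Coprime (3 ^ 2) (s ^ k) := Nat.Coprime.pow 2 k ((Nat.coprime_primes Nat.prime_three hs).2 (Ne.symm hs3))
    have h5 : orderOf w ∣ 1 := by
      rw [← h4.gcd_eq_one]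
      exact Nat.dvd_gcd (orderOf_dvd_of_pow_eq_one h2) (orderOf_dvd_of_pow_eq_one h3)
    rw [mem_bot]
    exact orderOf_eq_one_iff.1 (Nat.dvd_one.1 h5)

/-- the centraliser of `M ∋ U 0 0 1, n U 0 0 1 n` is trivial -/
theorem centralizer_eq_bot (D : Data m U h n) (hK : Fintype.card K = 3 ^ (2 * m + 1)) {M : Subgroup G}
    (hz : U 0 0 1 ∈ M) (hz' : n * U 0 0 1 * n ∈ M) : centralizer (M : Set G) = ⊥ := by
  rw [eq_bot_iff]
  intro y hy
  have h1 := cen_z D hK (mem_centralizer_iff.mp hy _ hz).symm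
  have h2 : n * y * n ∈ uSub D := by
    apply cen_z D hK
    have h3 := (mem_centralizer_iff.mp hy _ hz').symm
    calc n * y * n * U 0 0 1 = n * y * n * U 0 0 1 * (n * n) := by rw [D.n_n, mul_one]
      _ = n * (y * (n * U 0 0 1 * n)) * n := by group
      _ = n * (n * U 0 0 1 * n * y) * n := by rw [h3]
      _ = (n * n) * U 0 0 1 * (n * y * n) := by group
      _ = _ := by rw [D.n_n, one_mul]
  obtain ⟨t, u, v, rfl⟩ := h1
  obtain ⟨t', u', v', h3⟩ := h2
  have h4 : U t u v * h 1 * n * U 0 0 0 = U 0 0 0 * h 1 * n * U t' u' v' := by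
    rw [D.h_one, mul_one, mul_one, D.U_zero, mul_one, one_mul, ← h3]
    calc U t u v * n = (n * n) * U t u v * n := by rw [D.n_n, one_mul]
      _ = _ := by group
  obtain ⟨rfl, rfl, rfl, -⟩ := D.inj₂ _ _ _ _ _ _ _ _ _ _ _ _ _ _ h4
  rw [mem_bot, D.U_zero]

/-- automorphisms centralising `U 0 0 1`, `n`, `U 1 0 0` are field automorphisms -/
theorem exists_fld [Finite G] (hm : 1 ≤ m) (hK : Fintype.card K = 3 ^ (2 * m + 1)) {D : Data m U h n}
    {Φ : (K ≃+* K) → MulAut G} (F : Fld D Φ) {β : MulAut G} (hz : β (U 0 0 1) = U 0 0 1) (hn : β n = n)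
    (hu : β (U 1 0 0) = U 1 0 0) : ∃ τ : K ≃+* K, β = Φ τ := by
  obtain ⟨g, hg⟩ := exists_conj_apply hK D β
  have h1 : g ∈ bSub D := by
    refine mem_bSub_of_inv_conj_mem D (x := U 0 0 1) ⟨_, _, _, rfl⟩ (z_ne D) ?_
    have h2 := (hg (U 0 0 1)).2 ⟨_, _, _, rfl⟩
    rwa [hz] at h2
  have h2 : ∀ x, β x ∈ uSub D ↔ x ∈ uSub D := by
    intro x
    rw [← hg x]
    constructor
    · intro hx
      have := conj_mem_uSub D (inv_mem h1) hx
      rwa [inv_inv] at this
    · intro hx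
      have := conj_mem_uSub D h1 hx
      have e : g * (g⁻¹ * β x * g) * g⁻¹ = β x := by group
      rwa [e] at this
  have h3 : β ∈ Fr D := by
    rw [mem_Fr]
    refine ⟨h2, fun x => ?_⟩
    rw [← h2 (n * x * n), map_mul, map_mul, hn]
  obtain ⟨a, τ, h4⟩ := exists_of_frame hm hK F h3
  refine ⟨τ, ?_⟩
  have h5 : β (U 1 0 0) = U ((a : K) ^ (3 ^ (m + 1))) 0 0 := by
    rw [h4, MulAut.mul_apply, F.onU, map_one, map_zero, MulAut.conj_apply, h_U_inv D]
    congr 1 <;> ring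
  rw [hu] at h5
  have h6 := (U_injective D h5).1
  have h7 : a = 1 := by
    apply eq_one_of_pow_three hK (m + 1) a
    apply Units.ext
    rw [Units.val_pow_eq_pow_val, ← h6, Units.val_one]
  rw [h4, h7, D.h_one, map_one, one_mul]

end abs

/-- **Artin**: a field automorphism fixing the fixed field of `φ` is a power of `φ` -/
theorem exists_zpow_of_fix {F : Type*} [Field F] [Finite F] (φ f' : F ≃+* F) (hf : ∀ t, φ t = t → f' t = t) :
    ∃ k : ℤ, f' = φ ^ k := by
  have hfin : FiniteDimensional (Fx φ) F := Module.Finite.of_finite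
  let H : Subgroup (F ≃ₐ[Fx φ] F) := Subgroup.zpowers
    (AlgEquiv.ofRingEquiv (f := φ) (fun r : Fx φ => r.2))
  let g : F ≃ₐ[Fx φ] F := AlgEquiv.ofRingEquiv (f := f') (fun r : Fx φ => hf _ r.2)
  have hH : IntermediateField.fixedField H = ⊥ := by
    rw [eq_bot_iff]
    intro z hz
    have h2 : φ z = z := hz ⟨_, Subgroup.mem_zpowers _⟩
    rw [IntermediateField.mem_bot]
    exact ⟨⟨z, h2⟩, rfl⟩
  have hg : g ∈ H := by
    rw [← IntermediateField.fixingSubgroup_fixedField H, hH, IntermediateField.fixingSubgroup_bot]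
    exact Subgroup.mem_top g
  obtain ⟨k, hk⟩ := hg
  refine ⟨k, ?_⟩
  have h3 : ∀ (k : ℤ) (z : F), ((AlgEquiv.ofRingEquiv (f := φ) (fun r : Fx φ => r.2) : F ≃ₐ[Fx φ] F) ^ k) z
      = (φ ^ k) z := by
    intro k
    have hn : ∀ (n : ℕ) (z : F), ((AlgEquiv.ofRingEquiv (f := φ) (fun r : Fx φ => r.2) : F ≃ₐ[Fx φ] F) ^ n) z
      = (φ ^ n) z := by
      intro n
      induction n with
      | zero => intro z; rfl
      | succ n ih =>
        intro z
        rw [pow_succ, pow_succ]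
        exact ih (φ z)
    cases k with
    | ofNat n => intro z; exact hn n z
    | negSucc n =>
      intro z
      rw [zpow_negSucc, zpow_negSucc]
      have h4 : ∀ (A : F ≃ₐ[Fx φ] F) (B : F ≃+* F), (∀ z, A z = B z) → ∀ z, A⁻¹ z = B⁻¹ z := by
        intro A B hAB z
        apply A.injective
        have h5 : A (A⁻¹ z) = z := by
          show (A * A⁻¹) z = z
          rw [mul_inv_cancel]; rfl
        have h6 : B (B⁻¹ z) = z := by
          show (B * B⁻¹) z = z
          rw [mul_inv_cancel]; rfl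
        rw [h5, hAB, h6]
      exact h4 _ _ (hn (n + 1)) z
  ext z
  rw [← h3, ← show g z = f' z from rfl]
  exact congrArg (fun A : F ≃ₐ[Fx φ] F => A z) hk.symm

/-! ### The field automorphisms -/

section fields

variable {F : Type*} [Field F] [Fintype F] {m : ℕ}

theorem fld {θ : F →+* F} (c : Ctx θ (3 ^ m)) :
    Fld (Data.data c) fun τ => fieldAut (stab_g2 (3 ^ m)) τ where
  onU τ t u v := fa_U τ (3 ^ m) t u v
  onH τ a := by
    rw [fa_T]
    rfl
  onN τ := fa_N τ c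

theorem rig_field (hm : 1 ≤ m) (hF : Fintype.card F = 3 ^ (2 * m + 1)) (σ : F ≃+* F)
    (hp : (orderOf (fieldAut (stab_g2 (K := F) (3 ^ m)) σ)).Prime) : Rig (fieldAut (stab_g2 (3 ^ m)) σ) := by
  obtain ⟨θ, c⟩ := exists_ctx hF
  have hfin : Finite ↥(twistedG2 F (3 ^ m)) := ReeSylowThree.finite (Data.data c)
  intro β hβ hf
  have hU : ∀ t u v, σ t = t → σ u = u → σ v = v → β (Data.U F (3 ^ m) t u v) = Data.U F (3 ^ m) t u v := by
    intro t u v ht hu hv
    apply hf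
    show fieldAut (stab_g2 (3 ^ m)) σ _ = _
    rw [fa_U, ht, hu, hv]
  obtain ⟨τ, rfl⟩ := exists_fld hm hF (fld c) (hU 0 0 1 (map_zero _) (map_zero _) (map_one _)) (hf _ (fa_N σ c))
    (hU 1 0 0 (map_one _) (map_zero _) (map_zero _))
  have h1 : ∀ t, σ t = t → τ t = t := by
    intro t ht
    have h2 := hU t 0 0 ht (map_zero _) (map_zero _)
    rw [fa_U] at h2
    exact (U_injective (Data.data c) h2).1
  obtain ⟨k, rfl⟩ := exists_zpow_of_fix σ τ h1
  have h2 : orderOf (fieldAut (stab_g2 (K := F) (3 ^ m)) (σ ^ k)) ∣ orderOf (fieldAut (stab_g2 (K := F) (3 ^ m)) σ) := by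
    rw [map_zpow]
    exact orderOf_dvd_of_mem_zpowers ⟨k, rfl⟩
  rcases (Nat.dvd_prime hp).1 h2 with h3 | h3
  · exact orderOf_eq_one_iff.1 h3
  · exact absurd h3.symm.dvd hβ

/-- **field automorphisms of prime order** -/
theorem ga_field (hm : 1 ≤ m) (hF : Fintype.card F = 3 ^ (2 * m + 1)) (σ : F ≃+* F)
    (hp : (orderOf (fieldAut (stab_g2 (K := F) (3 ^ m)) σ)).Prime)  :
    GA (fieldAut (stab_g2 (3 ^ m)) σ) := by
  intro hs
  obtain ⟨θ, c⟩ := exists_ctx hF
  have hfin : Finite ↥(twistedG2 F (3 ^ m)) := ReeSylowThree.finite (Data.data c)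
  have hU : ∀ t u v, σ t = t → σ u = u → σ v = v → Data.U F (3 ^ m) t u v ∈ fx (fieldAut (stab_g2 (3 ^ m)) σ) := by
    intro t u v ht hu hv
    show fieldAut (stab_g2 (3 ^ m)) σ _ = _
    rw [fa_U, ht, hu, hv]
  have hn : Data.N c ∈ fx (fieldAut (stab_g2 (3 ^ m)) σ) := fa_N σ c
  refine ⟨fun s W hW => ?_, rig_field hm hF σ hp, ?_⟩
  · exact eq_bot_of_norm (Data.data c) hF (hU 0 1 0 (map_zero _) (map_one _) (map_zero _))
      (hU 0 0 1 (map_zero _) (map_zero _) (map_one _)) hs hW.prime hW.pgroup hW.nrm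
  · have hcard := card_Fx σ
    rw [Nat.card_eq_fintype_card, hF] at hcard
    obtain ⟨m₀, j, h1, h2⟩ := H967.CopFix.exists_odd_exp Nat.prime_three hcard
    have : Fintype ↥(Fx σ) := Fintype.ofFinite _
    have hE : Fintype.card ↥(Fx σ) = 3 ^ (2 * m₀ + 1) := by rw [← Nat.card_eq_fintype_card, h1]
    obtain ⟨θ₀, c₀⟩ := exists_ctx hE
    have hpow : ∀ x : ↥(Fx σ), x ^ 3 ^ m = x ^ 3 ^ m₀ := pow_eq h1 h2
    have hfin₀ : Finite ↥(twistedG2 ↥(Fx σ) (3 ^ m₀)) := ReeSylowThree.finite (Data.data c₀)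
    have hinj := emb_injective (Fx σ).subtype hpow
    have hfx := fx_eq σ c c₀ hpow
    -- the derived group is simple
    have hcom : IsSimpleGroup ↥(commutator ↥(twistedG2 ↥(Fx σ) (3 ^ m₀))) ∧
        ¬ IsMulCommutative ↥(commutator ↥(twistedG2 ↥(Fx σ) (3 ^ m₀))) := by
      rcases Nat.eq_zero_or_pos m₀ with h0 | h0
      · subst h0
        exact (three_facts hE).2
      · have hsim := (Cfsg.Agent.S1073.result h0 hE).1
        have hnc : ¬ (∀ a b : ↥(twistedG2 ↥(Fx σ) (3 ^ m₀)), a * b = b * a) := fun h =>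
          not_comm c₀ (h _ _)
        have htop : commutator ↥(twistedG2 ↥(Fx σ) (3 ^ m₀)) = ⊤ := by
          rcases (inferInstance : (commutator ↥(twistedG2 ↥(Fx σ) (3 ^ m₀))).Normal).eq_bot_or_eq_top with h3 | h3
          · exfalso
            apply hnc
            intro a b
            have h4 : ⁅a, b⁆ ∈ commutator ↥(twistedG2 ↥(Fx σ) (3 ^ m₀)) :=
              commutator_mem_commutator (mem_top a) (mem_top b)
            rw [h3, mem_bot, commutatorElement_eq_one_iff_mul_comm] at h4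
            exact h4
          · exact h3
        have e := (topEquiv (G := ↥(twistedG2 ↥(Fx σ) (3 ^ m₀))))
        rw [htop]
        refine ⟨e.isSimpleGroup, fun hc => hnc fun a b => ?_⟩
        apply e.symm.injective
        rw [map_mul, map_mul, hc.is_comm.comm]
    let M := (commutator ↥(twistedG2 ↥(Fx σ) (3 ^ m₀))).map (emb (Fx σ).subtype hpow)
    let eM : ↥(commutator ↥(twistedG2 ↥(Fx σ) (3 ^ m₀))) ≃* ↥M :=
      (commutator ↥(twistedG2 ↥(Fx σ) (3 ^ m₀))).equivMapOfInjective _ hinj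
    have hMle : M ≤ fx (fieldAut (stab_g2 (3 ^ m)) σ) := by
      rw [hfx]
      exact Subgroup.map_le_range _ _
    have hMn : fx (fieldAut (stab_g2 (3 ^ m)) σ) ≤ normalizer (M : Set ↥(twistedG2 F (3 ^ m))) := by
      rw [hfx]
      rintro _ ⟨g, rfl⟩
      refine Transfer.FusionBasic.mem_normalizer_of_conj_mem ?_
      rintro _ ⟨y, hy, rfl⟩
      refine ⟨g * y * g⁻¹, ?_, by rw [map_mul, map_mul, map_inv]⟩
      exact (inferInstance : (commutator ↥(twistedG2 ↥(Fx σ) (3 ^ m₀))).Normal).conj_mem y hy g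
    have hzM : Data.U F (3 ^ m) 0 0 1 ∈ M := by
      have D₀ := Data.data c₀
      have e1 : Data.U ↥(Fx σ) (3 ^ m₀) 0 (-1) 0 * Data.U _ (3 ^ m₀) 1 0 0 =
          Data.U _ (3 ^ m₀) 1 0 0 * Data.U _ (3 ^ m₀) 0 (-1) 0 * Data.U _ (3 ^ m₀) 0 0 1 := by
        rw [D₀.U_mul, D₀.U_mul, D₀.U_mul, z3]
        congr 1 <;> ring
      have e2 : Data.U ↥(Fx σ) (3 ^ m₀) 0 0 1 ∈ commutator ↥(twistedG2 ↥(Fx σ) (3 ^ m₀)) := by
        have e3 : Data.U ↥(Fx σ) (3 ^ m₀) 0 0 1 =
            ⁅(Data.U ↥(Fx σ) (3 ^ m₀) 0 (-1) 0)⁻¹, (Data.U _ (3 ^ m₀) 1 0 0)⁻¹⁆ := by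
          rw [commutatorElement_def, inv_inv, inv_inv, mul_assoc _ (Data.U ↥(Fx σ) (3 ^ m₀) 0 (-1) 0), e1]
          group
        rw [e3]
        exact commutator_mem_commutator (mem_top _) (mem_top _)
      refine ⟨_, e2, ?_⟩
      rw [emb_U, map_zero, map_one]
    refine ⟨M, hMle, ?_, ?_, hMn, ?_⟩
    · have := hcom.1
      exact eM.symm.isSimpleGroup
    · intro hc
      apply hcom.2
      refine ⟨⟨fun a b => eM.injective ?_⟩⟩
      rw [map_mul, map_mul]
      exact hc.is_comm.comm _ _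
    · refine centralizer_eq_bot (Data.data c) hF hzM ?_
      have h3 := (mem_normalizer_iff.mp (hMn hn) (Data.U F (3 ^ m) 0 0 1)).mp hzM
      rwa [(Data.data c).n_inv] at h3

end fields

/-- **The small Ree groups satisfy `GS`.** -/
theorem gs_ree {K : Type*} [Group K] (h : Lie.IsoRee K) : GS K := by
  obtain ⟨F, iF, iF', m, hm, hF, ⟨e⟩⟩ := h
  intro α h1 h2
  obtain ⟨e', σ, h3, h4⟩ := (row_ree hm hF).exists_equiv_one e α h2
  have h5 := ga_field hm hF σ (by
    rw [orderOf_injective _ (row_ree hm hF).inj σ, h4]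
    exact h1)
  have h6 : ∀ x, e'.symm (fieldAut (stab_g2 (3 ^ m)) σ x) = α (e'.symm x) := by
    intro x
    apply e'.injective
    rw [h3, e'.apply_symm_apply, e'.apply_symm_apply]
  exact h5.congr e'.symm h6

end Cfsg.Agent.H538.GSRee
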